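import Cfsg.Agent.Lib.TwistedGen.Basic
import Cfsg.Agent.Lib.Twisted.ReeDouble
import Cfsg.Agent.Lib.Twisted.TorusReeAction
import Cfsg.Agent.Lib.Twisted.TorusReeCard
import Cfsg.Agent.Lib.Twisted.ReeUnipotentLaw

/-!
The small Ree groups are generated by a torus element and a unipotent element times a monomial one.
-/

set_option autoImplicit false

namespace CfsgLib.TwistedGen

open Cfsg.Lie CfsgLib.Twisted
open CfsgLib.Chevalley (Std auxG2 cert_G2 xG xG_mul torusHom chi acts_torus)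

variable {K : Type*} [Field K] [Fintype K] {m : ℕ}

/-- the three coordinates of an element of `U¹` -/
def InU (m : ℕ) (x : GL chevG2.Idx K) (t E F : K) : Prop :=
  ∃ u v, x = wordG cert_G2 (reeWordU (3 ^ m) t u v) ∧ E = u + t * (t ^ 3 ^ m) ^ 3 ∧
    F = v + t ^ 2 * (t ^ 3 ^ m) ^ 3

theorem InU.coord (hK : Fintype.card K = 3 ^ (2 * m + 1)) {x : GL chevG2.Idx K} {t E F : K}
    (h : InU m x t E F) : ReeCoord x t E F := by
  obtain ⟨u, v, rfl, rfl, rfl⟩ := h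
  exact reeCoord_word hK t u v

theorem InU.ext {x y : GL chevG2.Idx K} {t E F : K}
    (h : InU m x t E F) (h' : InU m y t E F) : x = y := by
  obtain ⟨u, v, rfl, rfl, rfl⟩ := h
  obtain ⟨u', v', rfl, e1, e2⟩ := h'
  rw [add_right_cancel e1, add_right_cancel e2]

theorem InU.mem {x : GL chevG2.Idx K} {t E F : K} (hK : Fintype.card K = 3 ^ (2 * m + 1))
    (h : InU m x t E F) : x ∈ twistedG2 K (3 ^ m) ⊓ chevG2.posUnipotent K := by
  obtain ⟨u, v, rfl, -, -⟩ := h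
  exact (mem_unipotent_g2 hK (g2Twist_isTwist hK) le_rfl _).2 ⟨t, u, v, rfl⟩

theorem exists_inU (hK : Fintype.card K = 3 ^ (2 * m + 1)) {x : GL chevG2.Idx K}
    (hx : x ∈ twistedG2 K (3 ^ m) ⊓ chevG2.posUnipotent K) : ∃ t E F, InU m x t E F := by
  obtain ⟨t, u, v, rfl⟩ := (mem_unipotent_g2 hK (g2Twist_isTwist hK) le_rfl x).1 hx
  exact ⟨t, _, _, u, v, rfl, rfl, rfl⟩

theorem InU.mul (hK : Fintype.card K = 3 ^ (2 * m + 1)) {x y : GL chevG2.Idx K} {t E F t' E' F' : K}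
    (hx : InU m x t E F) (hy : InU m y t' E' F') :
    InU m (x * y) (t + t') (E + E' + t' * (t ^ 3 ^ m) ^ 3) (F + F' + t' ^ 2 * (t ^ 3 ^ m) ^ 3 - E * t') := by
  have h30 : ((3 : ℕ) : K) = 0 := natCast_char_zero (p := 3) (k := 2 * m + 1) (by omega) hK
  obtain ⟨t'', E'', F'', hxy⟩ := exists_inU hK (mul_mem (hx.mem hK) (hy.mem hK))
  have hx' : ∃ c d, x = reeSorted t (t ^ 3 ^ m) c d E F := by
    obtain ⟨u, v, rfl, rfl, rfl⟩ := hx
    exact ⟨_, _, (reeWordU_sorted hK t u v).1⟩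
  obtain ⟨e1, e2, e3⟩ := (hxy.coord hK).unique (ReeCoord.mul h30 hx' (hy.coord hK))
  subst e1 e2 e3
  exact hxy

theorem inU_one (hK : Fintype.card K = 3 ^ (2 * m + 1)) : InU m (1 : GL chevG2.Idx K) 0 0 0 := by
  obtain ⟨t, E, F, h⟩ := exists_inU hK (one_mem (twistedG2 K (3 ^ m) ⊓ chevG2.posUnipotent K))
  obtain ⟨rfl, rfl, rfl⟩ := (h.coord hK).unique reeCoord_one
  exact h

theorem InU.pow_three (hK : Fintype.card K = 3 ^ (2 * m + 1)) {x : GL chevG2.Idx K} {t E F : K}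
    (h : InU m x t E F) : InU m (x ^ 3) 0 0 (-(t ^ 2 * (t ^ 3 ^ m) ^ 3)) := by
  obtain ⟨t', E', F', h'⟩ := exists_inU hK (pow_mem (h.mem hK) 3)
  obtain ⟨u, v, rfl, rfl, rfl⟩ := h
  obtain ⟨rfl, rfl, rfl⟩ := (h'.coord hK).unique (reeCoord_cube hK t u v)
  exact h'

/-- The torus scales the coordinates. -/
theorem InU.conj (hK : Fintype.card K = 3 ^ (2 * m + 1)) {g x : GL chevG2.Idx K}
    (hg : g ∈ chevG2.diagonalSubgroup K ⊓ twistedG2 K (3 ^ m)) {a : K}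
    (ha : reeTorusVal (⟨g, hg⟩ : ↥(chevG2.diagonalSubgroup K ⊓ twistedG2 K (3 ^ m))) = a)
    {t E F : K} (h : InU m x t E F) : InU m (g * x * g⁻¹) (a ^ (3 * 3 ^ m) * t)
      (a ^ 3 * a ^ (3 * 3 ^ m) * E) (a ^ 3 * (a ^ (3 * 3 ^ m)) ^ 2 * F) := by
  obtain ⟨hgd, hgG⟩ := Subgroup.mem_inf.1 hg
  obtain ⟨hxG, hxU⟩ := Subgroup.mem_inf.1 (h.mem hK)
  obtain ⟨t', E', F', h'⟩ := exists_inU hK (x := g * x * g⁻¹) (Subgroup.mem_inf.2
    ⟨mul_mem (mul_mem hgG hxG) (inv_mem hgG),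
      CfsgLib.Chevalley.diagonal_conj_rootsU fullG2 {r | chevG2.IsPosRoot r} g hgd x hxU⟩)
  obtain ⟨c, hgc, hfix⟩ := reeTorus_fixed hK hg
  have e7 : ((chi chevG2 7 c : Kˣ) : K) = a := by
    rw [← ha]
    show _ = (g : Matrix chevG2.Idx chevG2.Idx K) _ _
    rw [hgc, CfsgLib.Chevalley.coe_torusHom, Matrix.diagonal_apply_eq]
    rfl
  have e6 : ((chi chevG2 6 c : Kˣ) : K) = a ^ (3 * 3 ^ m) := by
    have := hfix 7 (by norm_num)
    rw [reeTorus_data.1.2.2.1] at this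
    rw [← this, g2Twist, reeTorus_data.1.2.2.2.2.1, mul_comm 3, pow_mul]
    norm_num
    rw [e7]
  have hlt : ∀ r ∈ [g2b, g2a, g2ab, g2aab, g2aaab, g2aaabb], r < chevG2.nroots := by decide +kernel
  have hcj : ∀ (r : ℕ), r ∈ [g2b, g2a, g2ab, g2aab, g2aaab, g2aaabb] → ∀ s : K,
      g * xG cert_G2 r s * g⁻¹ = xG cert_G2 r (((chi chevG2 r c : Kˣ) : K) * s) := fun r hr s => by
    have := (acts_torus cert_G2 c).conj (⟨r, hlt r hr⟩ : Fin chevG2.nroots) s
    rw [← hgc] at this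
    exact this
  obtain ⟨a', c', d', hx⟩ := h.coord hK
  have hco : ReeCoord (g * x * g⁻¹) (a ^ (3 * 3 ^ m) * t) (a ^ 3 * a ^ (3 * 3 ^ m) * E)
      (a ^ 3 * (a ^ (3 * 3 ^ m)) ^ 2 * F) := by
    refine ⟨((chi chevG2 g2a c : Kˣ) : K) * a', ((chi chevG2 g2ab c : Kˣ) : K) * c',
      ((chi chevG2 g2aab c : Kˣ) : K) * d', ?_⟩
    rw [hx]
    simp only [reeSorted, wordG_cons, wordG_nil, mul_one]
    simp only [← MulAut.conj_apply, map_mul]
    simp only [MulAut.conj_apply]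
    rw [hcj g2b (by simp), hcj g2a (by simp), hcj g2ab (by simp), hcj g2aab (by simp), hcj g2aaab (by simp),
      hcj g2aaabb (by simp)]
    have h10 := congrArg (fun u : Kˣ => (u : K)) (chi_ree c).1
    have h11 := congrArg (fun u : Kˣ => (u : K)) (chi_ree c).2
    simp only [Units.val_mul, Units.val_pow_eq_pow_val] at h10 h11
    rw [show g2b = 6 from rfl, show g2aaab = 10 from rfl, show g2aaabb = 11 from rfl, h10, h11, e6, e7]
  obtain ⟨e1, e2, e3⟩ := (h'.coord hK).unique hco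
  subst e1 e2 e3
  exact h'

theorem add_squares_top {S : AddSubgroup K} {E₀ : K} (h0 : E₀ ∈ S) (hne : E₀ ≠ 0)
    (hsq : ∀ x : K, x ≠ 0 → ∀ E ∈ S, x * x * E ∈ S) (E : K) : E ∈ S := by
  obtain ⟨a, b, hab⟩ : ∃ a b : K, a ^ 2 + b ^ 2 = E / E₀ := by
    rcases Nat.even_or_odd (Fintype.card K) with he | ho
    · have hc : ringChar K = 2 := by
        by_contra hne
        exact absurd (FiniteField.odd_card_of_char_ne_two hne) (by rw [Nat.even_iff] at he; omega)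
      obtain ⟨a, ha⟩ := FiniteField.isSquare_of_char_two hc (E / E₀)
      exact ⟨a, 0, by rw [ha]; ring⟩
    · obtain ⟨a, b, hab⟩ := FiniteField.exists_root_sum_quadratic (f := Polynomial.X ^ 2)
        (g := Polynomial.X ^ 2 - Polynomial.C (E / E₀)) (Polynomial.degree_X_pow 2)
        (Polynomial.degree_X_pow_sub_C (by decide) _) (Nat.odd_iff.1 ho)
      refine ⟨a, b, ?_⟩
      rw [← sub_eq_zero]
      simpa [← add_sub_assoc] using hab
  have key : ∀ x : K, x ^ 2 * E₀ ∈ S := fun x => by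
    rcases eq_or_ne x 0 with rfl | hx
    · simp [S.zero_mem]
    · rw [sq]; exact hsq x hx _ h0
  have := S.add_mem (key a) (key b)
  rwa [← add_mul, hab, div_mul_cancel₀ _ hne] at this

theorem pow_surj {e : ℕ} (he : (Fintype.card K - 1).Coprime e) (y : K) (hy : y ≠ 0) : ∃ x : K, x ≠ 0 ∧ x ^ e = y := by
  classical
  have h : (Nat.card Kˣ).Coprime e := by rwa [Nat.card_eq_fintype_card, Fintype.card_units]
  obtain ⟨u, hu⟩ := (powCoprime h).surjective (Units.mk0 y hy)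
  exact ⟨u, u.ne_zero, congrArg Units.val hu⟩

theorem coprime_ree_exponent (m : ℕ) : (3 ^ (2 * m + 1) - 1).Coprime (2 + 3 * 3 ^ m) := by
  set e := 3 ^ m with he
  have hq : 3 ^ (2 * m + 1) = 3 * (e * e) := by rw [he]; ring
  rw [hq]
  have h1 : 1 ≤ 3 * (e * e) := Nat.one_le_iff_ne_zero.2 (by positivity)
  refine Nat.Coprime.symm (Nat.coprime_of_dvd' fun p hp h2 hd => ?_)
  -- `9 e² - 4` and `9 e² - 3` differ by one
  have a1 : p ∣ (2 + 3 * e) * (3 * e - 2) := h2.mul_right _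
  have a2 : p ∣ 3 * (3 * (e * e) - 1) := hd.mul_left 3
  have he1 : 1 ≤ e := Nat.one_le_pow _ _ (by norm_num)
  have key : 3 * (3 * (e * e) - 1) = (2 + 3 * e) * (3 * e - 2) + 1 := by
    obtain ⟨k, hk⟩ : ∃ k, 3 * e = k + 2 := ⟨3 * e - 2, by omega⟩
    have : (2 + 3 * e) * k + 4 = 9 * (e * e) := by nlinarith
    rw [hk, Nat.add_sub_cancel, ← hk]
    omega
  rw [key] at a2
  have := (Nat.dvd_add_right a1).1 a2
  simpa using this

theorem exists_gens_ree (hm : 1 ≤ m) (hK : Fintype.card K = 3 ^ (2 * m + 1)) :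
    ∃ a b : ↥(twistedG2 K (3 ^ m)), Subgroup.closure ({a, b} : Set ↥(twistedG2 K (3 ^ m))) = ⊤ := by
  classical
  obtain ⟨s, hS⟩ := exists_isRankOne_ree hK
  obtain ⟨z, hz⟩ := IsCyclic.exists_generator (α := Kˣ)
  obtain ⟨⟨g, hg⟩, hgz⟩ := reeTorusVal_surj hK (z.ne_zero)
  have he3 : 3 ≤ 3 ^ m := le_trans (by norm_num) (Nat.pow_le_pow_right (by norm_num : 0 < 3) hm)
  have hq : Fintype.card K = 3 * 3 ^ m * 3 ^ m := by rw [hK]; ring
  have hfix : ∀ y : K, y ^ (3 * 3 ^ m * 3 ^ m) = y := fun y => by rw [← hq]; exact FiniteField.pow_card y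
  have hord : orderOf (z : K) = Fintype.card K - 1 := by
    rw [orderOf_units, orderOf_eq_card_of_forall_mem_zpowers hz, Nat.card_eq_fintype_card, Fintype.card_units]
  have hone : ∀ x y : K, x ≠ 0 → y ≠ 0 → x ^ (3 * 3 ^ m) = 1 → x = 1 := fun x y hx _ h => by
    have := hfix x
    rw [pow_mul, h, one_pow] at this
    exact this.symm
  have hz1 : (z : K) ≠ 1 := fun e => by
    rw [e, orderOf_one, hK] at hord
    have : 3 ^ (2 * m + 1) ≥ 3 ^ 3 := Nat.pow_le_pow_right (by norm_num) (by omega)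
    omega
  -- the conjugate torus element
  obtain ⟨hgd, hgG⟩ := Subgroup.mem_inf.1 hg
  have hg'd : s * g * s⁻¹ ∈ chevG2.diagonalSubgroup K :=
    CfsgLib.Chevalley.monomial_conj_diagonal fullG2 hS.monomial hgd
  have hg' : s * g * s⁻¹ ∈ chevG2.diagonalSubgroup K ⊓ twistedG2 K (3 ^ m) :=
    Subgroup.mem_inf.2 ⟨hg'd, mul_mem (mul_mem hS.mem hgG) (inv_mem hS.mem)⟩
  set g' := s * g * s⁻¹ with hg'def
  set a' : K := reeTorusVal (⟨g', hg'⟩ : ↥(chevG2.diagonalSubgroup K ⊓ twistedG2 K (3 ^ m))) with ha'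
  have ha'1 : a' ≠ 1 := fun e => by
    have h1 : (⟨g', hg'⟩ : ↥(chevG2.diagonalSubgroup K ⊓ twistedG2 K (3 ^ m))) = 1 :=
      reeTorusVal_injective hK (by rw [← ha', e, map_one])
    have h2 : g = 1 := conj_eq_one_iff.1 (congrArg Subtype.val h1)
    apply hz1
    rw [← hgz, show (⟨g, hg⟩ : ↥(chevG2.diagonalSubgroup K ⊓ twistedG2 K (3 ^ m))) = 1 from Subtype.ext h2,
      map_one]
  have hcomm : Commute g g' := by
    rw [CfsgLib.Chevalley.diagonalSubgroup_eq_range fullG2] at hgd hg'd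
    obtain ⟨c, rfl⟩ := hgd
    obtain ⟨c', hc'⟩ := hg'd
    rw [← hc']
    exact (Commute.all c c').map _
  set x := wordG cert_G2 (reeWordU (3 ^ m) (1 : K) 0 0) with hxdef
  have hx : InU m x (1 : K) _ _ := ⟨0, 0, rfl, rfl, rfl⟩
  have hxG : x ∈ twistedG2 K (3 ^ m) := (Subgroup.mem_inf.1 (hx.mem hK)).1
  refine exists_gens hgG (mul_mem hxG hS.mem) ?_
  set M := Subgroup.closure {g, x * s}
  have hgM : g ∈ M := Subgroup.subset_closure (Or.inl rfl)
  have hbM : x * s ∈ M := Subgroup.subset_closure (Or.inr rfl)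
  have hxgx : x * g' * x⁻¹ ∈ M := by
    rw [show x * g' * x⁻¹ = x * s * g * (x * s)⁻¹ by rw [hg'def]; group]
    exact mul_mem (mul_mem hbM hgM) (inv_mem hbM)
  -- an element with non-zero first coordinate
  have hyM := torus_commutator M hcomm hgM hxgx
  have hxinv : ∃ E F, InU m x⁻¹ (-1 : K) E F := by
    obtain ⟨t, E, F, h⟩ := exists_inU hK (inv_mem (hx.mem hK))
    obtain ⟨e, -, -⟩ := ((inU_one hK).coord hK).unique
      (by simpa using ((hx.mul hK h).coord hK))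
    have : t = -1 := by linear_combination (-1 : K) * e
    subst this
    exact ⟨E, F, h⟩
  obtain ⟨Ei, Fi, hxi⟩ := hxinv
  obtain ⟨E1, F1, hy⟩ : ∃ E F, InU m (g * x * g⁻¹ * (g' * (g * x⁻¹ * g⁻¹) * g'⁻¹) * (g' * x * g'⁻¹) * x⁻¹)
      (((z : K) ^ (3 * 3 ^ m) - 1) * (1 - a' ^ (3 * 3 ^ m))) E F := by
    have h := (((hx.conj hK hg hgz).mul hK ((hxi.conj hK hg hgz).conj hK hg' rfl)).mul hK
      (hx.conj hK hg' rfl)).mul hK hxi
    rw [← ha'] at h
    rw [show ((z : K) ^ (3 * 3 ^ m) - 1) * (1 - a' ^ (3 * 3 ^ m)) = (z : K) ^ (3 * 3 ^ m) * 1 +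
      a' ^ (3 * 3 ^ m) * ((z : K) ^ (3 * 3 ^ m) * -1) + a' ^ (3 * 3 ^ m) * 1 + -1 by ring]
    exact ⟨_, _, h⟩
  set t₀ := ((z : K) ^ (3 * 3 ^ m) - 1) * (1 - a' ^ (3 * 3 ^ m))
  have ht₀ : t₀ ≠ 0 := by
    refine mul_ne_zero (sub_ne_zero.2 fun e => hz1 (hone _ _ z.ne_zero z.ne_zero e)) (sub_ne_zero.2 fun e => ?_)
    have h0 : a' ≠ 0 := fun e0 => by rw [e0, zero_pow (by positivity)] at e; exact one_ne_zero e
    exact ha'1 (hone _ _ h0 h0 e.symm)
  set y := g * x * g⁻¹ * (g' * (g * x⁻¹ * g⁻¹) * g'⁻¹) * (g' * x * g'⁻¹) * x⁻¹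
  -- all powers of the torus element
  have htor : ∀ a : K, a ≠ 0 → ∃ (k : GL chevG2.Idx K) (hk : k ∈ chevG2.diagonalSubgroup K ⊓ twistedG2 K (3 ^ m)),
      k ∈ M ∧ reeTorusVal (⟨k, hk⟩ : ↥(chevG2.diagonalSubgroup K ⊓ twistedG2 K (3 ^ m))) = a := by
    intro a ha
    obtain ⟨j, hj⟩ := (Submonoid.mem_powers_iff _ _).1
      ((mem_powers_iff_mem_zpowers).2 (hz (Units.mk0 a ha)))
    refine ⟨g ^ j, pow_mem hg j, pow_mem hgM j, ?_⟩
    rw [show (⟨g ^ j, pow_mem hg j⟩ : ↥(chevG2.diagonalSubgroup K ⊓ twistedG2 K (3 ^ m))) = ⟨g, hg⟩ ^ j from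
      Subtype.ext (by simp), map_pow, hgz, ← Units.val_pow_eq_pow_val, hj]
    rfl
  have hfirst : ∀ t : K, ∃ w E F, w ∈ M ∧ InU m w t E F := by
    intro t
    rcases eq_or_ne t 0 with rfl | ht
    · exact ⟨1, 0, 0, M.one_mem, inU_one hK⟩
    obtain ⟨k, hk, hkM, hkv⟩ := htor ((t / t₀) ^ 3 ^ m) (pow_ne_zero _ (div_ne_zero ht ht₀))
    have h := hy.conj hK hk hkv
    rw [show ((t / t₀) ^ 3 ^ m) ^ (3 * 3 ^ m) = t / t₀ by
      rw [← pow_mul, show 3 ^ m * (3 * 3 ^ m) = 3 * 3 ^ m * 3 ^ m by ring, hfix], div_mul_cancel₀ _ ht₀] at h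
    exact ⟨_, _, _, mul_mem (mul_mem hkM hyM) (inv_mem hkM), h⟩
  -- the second coordinate
  let S : AddSubgroup K :=
    { carrier := {E | ∃ w F, w ∈ M ∧ InU m w 0 E F}
      zero_mem' := ⟨1, 0, M.one_mem, inU_one hK⟩
      add_mem' := by
        rintro a b ⟨w, F, hw, h⟩ ⟨w', F', hw', h'⟩
        have h'' := h.mul hK h'
        simp only [add_zero, zero_mul, zero_pow two_ne_zero, mul_zero, sub_zero, zero_pow (pow_ne_zero m three_ne_zero),
          zero_pow three_ne_zero] at h''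
        exact ⟨w * w', _, mul_mem hw hw', h''⟩
      neg_mem' := by
        rintro a ⟨w, F, hw, h⟩
        obtain ⟨t, E, F', h'⟩ := exists_inU hK (inv_mem (h.mem hK))
        obtain ⟨e1, e2, -⟩ := ((inU_one hK).coord hK).unique (by simpa using ((h.mul hK h').coord hK))
        have e1' : t = 0 := by simpa using e1.symm
        subst e1'
        have : E = -a := by
          rw [eq_neg_iff_add_eq_zero, add_comm]
          simpa using e2.symm
        subst this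
        exact ⟨_, _, inv_mem hw, h'⟩ }
  have hne : ∃ E₀ ∈ S, E₀ ≠ (0 : K) := by
    obtain ⟨w, E, F, hw, h⟩ := hfirst 1
    obtain ⟨w', E', F', hw', h'⟩ := hfirst z
    have hab := h.mul hK h'
    have hba := h'.mul hK h
    obtain ⟨t, E'', F'', hr⟩ := exists_inU hK (mul_mem (mul_mem (h.mem hK) (h'.mem hK))
      (inv_mem (mul_mem (h'.mem hK) (h.mem hK))))
    obtain ⟨e1, e2, -⟩ := (hab.coord hK).unique (by simpa [mul_assoc] using ((hr.mul hK hba).coord hK))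
    have e1' : t = 0 := by linear_combination (-1 : K) * e1
    subst e1'
    refine ⟨E'', ⟨_, F'', mul_mem (mul_mem hw hw') (inv_mem (mul_mem hw' hw)), hr⟩, fun e0 => ?_⟩
    simp only [one_pow, mul_one, one_mul, zero_pow (pow_ne_zero m three_ne_zero), zero_pow three_ne_zero,
      mul_zero, add_zero, e0, zero_add, ← pow_mul] at e2
    have h1 : (z : K) = (z : K) ^ (3 ^ m * 3) := by linear_combination e2
    have hd : orderOf (z : K) ∣ 3 ^ m * 3 - 1 := orderOf_dvd_of_pow_eq_one (mul_right_cancel₀ z.ne_zero (by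
      rw [← pow_succ, Nat.sub_add_cancel (Nat.one_le_iff_ne_zero.2 (by positivity)), ← h1, one_mul]))
    have := Nat.le_of_dvd (by omega) (hord ▸ hd)
    rw [hq] at this
    have : 3 * 3 ^ m * 3 ≤ 3 * 3 ^ m * 3 ^ m := Nat.mul_le_mul_left _ he3
    omega
  obtain ⟨E₀, hE₀, hE₀ne⟩ := hne
  have hsecond : ∀ E, E ∈ S := add_squares_top hE₀ hE₀ne fun r hr E ⟨w, F, hw, h⟩ => by
    set e := 3 ^ m with he
    have hre : (r ^ e) ^ (3 * e) = r := by
      rw [← pow_mul, show e * (3 * e) = 3 * e * e by ring, hfix]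
    set a := r / r ^ e with hadef
    obtain ⟨k, hk, hkM, hkv⟩ := htor a (div_ne_zero hr (pow_ne_zero _ hr))
    have h' := h.conj hK hk hkv
    rw [← he] at h'
    have ea : a ^ 3 * a ^ (3 * e) = r * r := by
      have e1 : (r ^ e) ^ 3 = r ^ (3 * e) := by rw [← pow_mul, mul_comm]
      rw [hadef, div_pow, div_pow, e1, hre]
      field_simp
    rw [ea] at h'
    exact ⟨_, _, mul_mem (mul_mem hkM hw) (inv_mem hkM), by simpa using h'⟩
  have hU : twistedG2 K (3 ^ m) ⊓ chevG2.posUnipotent K ≤ M := by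
    intro w hw
    obtain ⟨t, E, F, h⟩ := exists_inU hK hw
    obtain ⟨w1, E1, F1, hw1, h1⟩ := hfirst t
    obtain ⟨t2, E2, F2, h2⟩ := exists_inU hK (mul_mem (inv_mem (h1.mem hK)) hw)
    obtain ⟨e1, -, -⟩ := (h.coord hK).unique (by simpa using ((h1.mul hK h2).coord hK))
    have e1' : t2 = 0 := by linear_combination (-1 : K) * e1
    subst e1'
    obtain ⟨w3, F3, hw3, h3⟩ := hsecond E2
    obtain ⟨t4, E4, F4, h4⟩ := exists_inU hK (mul_mem (inv_mem (h3.mem hK)) (h2.mem hK))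
    obtain ⟨e1, e2, -⟩ := (h2.coord hK).unique (by simpa using ((h3.mul hK h4).coord hK))
    have e1' : t4 = 0 := by linear_combination (-1 : K) * e1
    subst e1'
    have e2' : E4 = 0 := by simpa using e2
    subst e2'
    have hF : w3⁻¹ * (w1⁻¹ * w) ∈ M := by
      rcases eq_or_ne F4 0 with rfl | hF0
      · rw [h4.ext (inU_one hK)]; exact M.one_mem
      obtain ⟨t, ht, hte⟩ := pow_surj (K := K) (by rw [hK]; exact coprime_ree_exponent m) (-F4) (neg_ne_zero.2 hF0)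
      obtain ⟨w5, E5, F5, hw5, h5⟩ := hfirst t
      have h6 := h5.pow_three hK
      rw [← pow_mul, ← pow_add, mul_comm (3 ^ m), hte, neg_neg] at h6
      rw [h4.ext h6]
      exact M.pow_mem hw5 3
    rw [show w = w1 * w3 * (w3⁻¹ * (w1⁻¹ * w)) by group]
    exact mul_mem (mul_mem hw1 hw3) hF
  have hsM : s ∈ M := by
    rw [show s = x⁻¹ * (x * s) by group]
    exact mul_mem (inv_mem (hU (hx.mem hK))) hbM
  have hT : ∀ t ∈ twistedG2 K (3 ^ m), t ∈ chevG2.diagonalSubgroup K → t ∈ M := by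
    intro t ht htd
    have htm : t ∈ chevG2.diagonalSubgroup K ⊓ twistedG2 K (3 ^ m) := Subgroup.mem_inf.2 ⟨htd, ht⟩
    have hv0 : reeTorusVal (⟨t, htm⟩ : ↥(chevG2.diagonalSubgroup K ⊓ twistedG2 K (3 ^ m))) ≠ 0 := fun e0 => by
      have := map_mul (reeTorusVal (K := K) (m := m)) ⟨t, htm⟩ ⟨t, htm⟩⁻¹
      rw [mul_inv_cancel, map_one, e0, zero_mul] at this
      exact one_ne_zero this
    obtain ⟨k, hk, hkM, hkv⟩ := htor _ hv0
    have := congrArg Subtype.val (reeTorusVal_injective hK hkv)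
    exact (show k = t from this) ▸ hkM
  intro w hw
  have hB : ∀ b ∈ twistedG2 K (3 ^ m), b ∈ chevG2.borelSubgroup K → b ∈ M := by
    intro b hb hbB
    obtain ⟨u, t, hu, huU, ht, htd, rfl⟩ := hS.borel b hb hbB
    exact mul_mem (hU ⟨hu, huU⟩) (hT t ht htd)
  rcases hS.cover w hw with hwB | ⟨u, b, hu, huU, hb, hbB, rfl⟩
  · exact hB w hw hwB
  · exact mul_mem (mul_mem (hU ⟨hu, huU⟩) hsM) (hB b hb hbB)

end CfsgLib.TwistedGen
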