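import Cfsg.Agent.Lib.TwistedGen.Powers
import Cfsg.Agent.Lib.TwistedOrder.Instances
import Cfsg.Agent.Lib.Twisted.TorusCounts

/-!
³D₄(q) is generated by two elements.
-/

set_option autoImplicit false
set_option maxRecDepth 100000

namespace CfsgLib.TwistedGen

open Cfsg.Lie
open CfsgLib.Chevalley hiding xG_mem_group
open CfsgLib.TwistedOrder
open CfsgLib.Twisted (Orb orbRoots checkOrd cycSet wordG wordG_mem_gen graphTwist graphSigmaD4A graphEtaD4A
  fullD4 orthPair_of_check checkOrthPair prod_hG_mem rootCertD4)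

theorem d4Gen_ok : (checkOrd chevD4 graphSigmaD4A [(23, [23])] &&
    checkOrd chevD4 graphSigmaD4A [(21, [17, 20, 21])] &&
    decide (CfsgLib.Twisted.etaCycle graphSigmaD4A graphEtaD4A (23, [23]) = 1) &&
    decide (graphSigmaD4A 23 = 23) && decide (graphSigmaD4A^[3] 21 = 21) &&
    ([23, 22, 21, 15].map fun r => (List.range 4).map fun k => chevD4.cartan k r) ==
      [[0, 1, 0, 0], [1, -1, 1, 1], [1, 0, 1, -1], [-1, 1, -1, 1]] &&
    checkOrthPair chevD4 d4p1 d4p3 && checkOrthPair chevD4 d4p1 d4p4 && checkOrthPair chevD4 d4p3 d4p4 &&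
    [chevD4.neg d4p1, chevD4.neg d4p3, chevD4.neg d4p4] == [d4m1, d4m3, d4m4] &&
    [chevD4.simple 0, chevD4.simple 2, chevD4.simple 3] == [d4p1, d4p3, d4p4]) = true := by
  decide +kernel

/-- The Coxeter element used. -/
def coxD4W : List (Fin chevD4.rank) := blockWord chevD4 [1] ++ blockWord chevD4 [0, 2, 3]

theorem d4Cox_ok : (
    decide (((wPerm fullD4.cert coxD4W) ⟨23, by decide⟩ : Fin chevD4.nroots).val = 22) &&
    decide (((wPerm fullD4.cert coxD4W) ⟨15, by decide⟩ : Fin chevD4.nroots).val = 21)) = true := by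
  decide +kernel

variable {K : Type*} [Field K] [Fintype K] {q : ℕ}

theorem coprime_d4Exp (hK : Fintype.card K = q ^ 3) :
    IsCoprime (1 + (q : ℤ) - q ^ 2) ((Fintype.card K : ℤ) - 1) := by
  obtain ⟨T, hT⟩ : Even ((q : ℤ) * ((q : ℤ) - 1)) := Int.even_mul_pred_self _
  rw [hK]
  push_cast
  exact ⟨-(((q : ℤ) ^ 2 - q - 1) - 2 * q * (q - 1) - ((q : ℤ) + 1) * (q - 1) * T), ((q : ℤ) - 1) * T, by
    linear_combination (-((q : ℤ) * (q - 1))) * hT⟩

set_option maxHeartbeats 1000000 in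
theorem exists_gens_d4 (hq : IsPrimePow q) (hK : Fintype.card K = q ^ 3) :
    ∃ a b : ↥(twistedD4 K q), Subgroup.closure ({a, b} : Set ↥(twistedD4 K q)) = ⊤ := by
  classical
  have hq2 := hq.two_le
  have hcd := d4Gen_ok
  simp only [Bool.and_eq_true, beq_iff_eq, List.map_cons, List.map_nil, List.cons.injEq, and_true,
    decide_eq_true_eq] at hcd
  obtain ⟨⟨⟨⟨⟨⟨⟨⟨⟨⟨hor, hos⟩, heta⟩, hr1⟩, hs3⟩, hcart⟩, o13⟩, o14⟩, o34⟩, n1, n3, n4⟩, s0, s2, s3⟩ := hcd
  have hcox := d4Cox_ok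
  simp only [Bool.and_eq_true, decide_eq_true_eq] at hcox
  obtain ⟨hS23, hS15⟩ := hcox
  let h := fullD4
  have T := dataD4 hq hK
  have hT := T.twist
  set G := twistedD4 K q with hGdef
  have hm : (-1 : K) ^ q = -1 := CfsgLib.Twisted.neg_one_pow_primePow hq three_ne_zero hK
  have hm2 : (-1 : K) ^ q ^ 2 = -1 := by rw [sq, pow_mul, hm, hm]
  have h3 : 2 < Fintype.card K := by
    rw [hK]
    calc 2 < 2 ^ 3 := by norm_num
      _ ≤ q ^ 3 := Nat.pow_le_pow_left hq2 3
  -- the generator of the torus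
  obtain ⟨z, hz⟩ := IsCyclic.exists_generator (α := Kˣ)
  set c : Fin chevD4.rank → Kˣ := (![z, 1, z ^ q, z ^ q ^ 2] : Fin 4 → Kˣ) with hc
  have w3 : ∀ t : K, ∀ rs ∈ [(d4p1, d4p3, d4p4), (d4m1, d4m3, d4m4)],
      wordG h.cert [(rs.1, t), (rs.2.1, t ^ q), (rs.2.2, t ^ q ^ 2)] ∈ G := fun t rs hrs =>
    wordG_mem_gen _ (Or.inr ⟨t, rs, hrs, rfl⟩)
  have hcG : torusHom chevD4 K c ∈ G := by
    have hsplit : torusHom chevD4 K c =
        ([(d4p1, (z : K)), (d4p3, (z : K) ^ q), (d4p4, (z : K) ^ q ^ 2)].map fun p => hG h.cert p.1 p.2).prod := by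
      simp only [List.map_cons, List.map_nil, List.prod_cons, List.prod_nil, mul_one]
      rw [← s0, ← s2, ← s3, ← Units.val_pow_eq_pow_val, ← Units.val_pow_eq_pow_val,
        show hG h.cert (chevD4.simple 0) (z : K) = torusHom chevD4 K (Pi.mulSingle (0 : Fin 4) z) from
          (torusHom_mulSingle h.cert (0 : Fin 4) z).symm,
        show hG h.cert (chevD4.simple 2) ((z ^ q : Kˣ) : K) = torusHom chevD4 K (Pi.mulSingle (2 : Fin 4) (z ^ q)) from
          (torusHom_mulSingle h.cert (2 : Fin 4) (z ^ q)).symm,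
        show hG h.cert (chevD4.simple 3) ((z ^ q ^ 2 : Kˣ) : K) =
            torusHom chevD4 K (Pi.mulSingle (3 : Fin 4) (z ^ q ^ 2)) from
          (torusHom_mulSingle h.cert (3 : Fin 4) (z ^ q ^ 2)).symm, ← map_mul, ← map_mul]
      have key : (![z, 1, z ^ q, z ^ q ^ 2] : Fin 4 → Kˣ) = Pi.mulSingle 0 z *
          (Pi.mulSingle 2 (z ^ q) * Pi.mulSingle 3 (z ^ q ^ 2)) := by
        funext k
        fin_cases k <;> simp [Pi.mulSingle_apply]
      exact congrArg (torusHom chevD4 K) key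
    rw [hsplit]
    refine prod_hG_mem h.cert ?_ (w3 _ _ (List.mem_cons_self ..)) ?_ ?_ ?_
    · simp only [List.map_cons, List.map_nil, List.pairwise_cons, List.mem_cons, List.not_mem_nil, or_false,
        forall_eq_or_imp, forall_eq, IsEmpty.forall_iff, implies_true, List.Pairwise.nil, and_true]
      exact ⟨⟨orthPair_of_check h.cert rootCertD4 o13, orthPair_of_check h.cert rootCertD4 o14⟩,
        orthPair_of_check h.cert rootCertD4 o34⟩
    · simpa [CfsgLib.Twisted.negPart, n1, n3, n4, inv_pow, neg_pow, hm, hm2] using w3 (-(z : K)⁻¹) (d4m1, d4m3, d4m4) (by simp)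
    · simpa [hm, hm2] using w3 (-1) (d4p1, d4p3, d4p4) (by simp)
    · simpa [CfsgLib.Twisted.negPart, n1, n3, n4] using w3 1 (d4m1, d4m3, d4m4) (by simp)
  -- characters
  have hchi : ∀ r : ℕ, chi chevD4 r c =
      z ^ (chevD4.cartan 0 r + (q : ℤ) * chevD4.cartan 2 r + (q : ℤ) ^ 2 * chevD4.cartan 3 r) := by
    intro r
    show ∏ k : Fin 4, c k ^ chevD4.cartan k r = _
    rw [Fin.prod_univ_four]
    show z ^ chevD4.cartan 0 r * (1 : Kˣ) ^ chevD4.cartan 1 r * (z ^ q) ^ chevD4.cartan 2 r *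
      (z ^ q ^ 2) ^ chevD4.cartan 3 r = _
    rw [one_zpow, mul_one, zpow_add, zpow_add, zpow_mul, zpow_mul, zpow_natCast,
      show ((q : ℤ) ^ 2) = ((q ^ 2 : ℕ) : ℤ) by push_cast; ring, zpow_natCast]
  simp only [List.range_succ, List.range_zero, List.nil_append, List.cons_append, List.map_cons, List.map_nil,
    List.cons.injEq, and_true] at hcart
  obtain ⟨⟨e230, -, e232, e233⟩, ⟨e220, -, e222, e223⟩, ⟨e210, -, e212, e213⟩, e150, -, e152, e153⟩ := hcart
  have c23 : chi chevD4 23 c = 1 := by rw [hchi, e230, e232, e233]; simp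
  have c22 : chi chevD4 22 c = z ^ (1 + (q : ℤ) + q ^ 2) := by rw [hchi, e220, e222, e223]; ring_nf
  have c21 : chi chevD4 21 c = z ^ (1 + (q : ℤ) - q ^ 2) := by rw [hchi, e210, e212, e213]; ring_nf
  have c15 : chi chevD4 15 c = z ^ (-(1 + (q : ℤ) - q ^ 2)) := by rw [hchi, e150, e152, e153]; ring_nf
  have hE := coprime_d4Exp (K := K) hK
  -- the Coxeter element
  have hreal := block_mem_permSet h reflTabD4_ok w1BlocksD4_ok (CfsgLib.Twisted.fixedDataD4 hq hK) (by decide +kernel)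
  obtain ⟨m₁, hm₁, η₁, hA₁⟩ := mem_permSet.1 (hreal [1] (by simp [w1BlocksD4]))
  obtain ⟨m₂, hm₂, η₂, hA₂⟩ := mem_permSet.1 (hreal [0, 2, 3] (by simp [w1BlocksD4]))
  set N := m₁ * m₂
  obtain ⟨η, hA⟩ : ∃ η, Acts h.cert N (wPerm h.cert coxD4W) η := ⟨_, by
    rw [coxD4W, wPerm_append]
    exact hA₁.mul hA₂⟩
  have hNG : N ∈ G := mul_mem hm₁.1 hm₂.1
  have hNN : N ∈ chevD4.monomialSubgroup K := mul_mem hm₁.2 hm₂.2
  -- the unipotent seeds
  obtain ⟨θ₁, hθ₁⟩ := acts_pow h.cert hA 1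
  obtain ⟨θ₅, hθ₅⟩ := acts_pow h.cert hA 5
  set ur := wordG h.cert [(d4p2, (1 : K))]
  set us := wordG h.cert [(d4p1, (1 : K)), (d4p3, 1 ^ q), (d4p4, 1 ^ q ^ 2)]
  have hur : ur ∈ G := wordG_mem_gen _ (Or.inl ⟨1, one_pow q, d4p2, by simp, rfl⟩)
  have hus : us ∈ G := w3 1 _ (List.mem_cons_self ..)
  set xr := N ^ 1 * ur * (N ^ 1)⁻¹
  set xs := N ^ 5 * us * (N ^ 5)⁻¹
  have hxrG : xr ∈ G := mul_mem (mul_mem (pow_mem hNG 1) hur) (inv_mem (pow_mem hNG 1))
  have hxsG : xs ∈ G := mul_mem (mul_mem (pow_mem hNG 5) hus) (inv_mem (pow_mem hNG 5))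
  have hp1 : ∀ t : Fin chevD4.nroots, (t : ℕ) = 14 → (((wPerm fullD4.cert coxD4W ^ 1) t : Fin chevD4.nroots) : ℕ) = 23 := by
    decide +kernel
  have hp5 : ∀ t : Fin chevD4.nroots, (t : ℕ) ∈ [18, 13, 12] →
      (((wPerm fullD4.cert coxD4W ^ 5) t : Fin chevD4.nroots) : ℕ) ∈ [17, 20, 21] := by
    decide +kernel
  have hxrU : xr ∈ rootsU chevD4 K {r | r ∈ orbRoots [((23, [23]) : Orb)]} :=
    hθ₁.conj_rootsU (S := {r | r ∈ [14]}) (fun s hs => by
      show ((_ : Fin chevD4.nroots) : ℕ) ∈ orbRoots _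
      rw [hp1 s (by simpa using hs)]; simp [orbRoots]) _ (wordG_mem_rootsU h.cert (by simp [d4p2]))
  have hxsU : xs ∈ rootsU chevD4 K {r | r ∈ orbRoots [((21, [17, 20, 21]) : Orb)]} :=
    hθ₅.conj_rootsU (S := {r | r ∈ [18, 13, 12]}) (fun s hs => by
      show ((_ : Fin chevD4.nroots) : ℕ) ∈ orbRoots _
      simpa [orbRoots] using hp5 s hs) _ (wordG_mem_rootsU h.cert (by simp [d4p1, d4p3, d4p4]))
  have hne : ∀ x : GL chevD4.Idx K, x ≠ 1 → ∀ n : GL chevD4.Idx K,
      n * x * n⁻¹ ∉ rootsU chevD4 K {r | r ∈ orbRoots ([] : List Orb)} := by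
    intro x hx n hm
    have : rootsU chevD4 K {r | r ∈ orbRoots ([] : List Orb)} = ⊥ := by
      rw [eq_bot_iff, rootsU_le_iff h.cert]
      intro s hs
      simp [orbRoots] at hs
    rw [this, Subgroup.mem_bot, conj_eq_one_iff] at hm
    exact hx hm
  have hur1 : ur ≠ 1 := fun e => one_ne_zero (α := K) (xG_injective h.cert (r := d4p2) (by decide)
    ((by simpa [ur, wordG] using e : xG h.cert d4p2 (1 : K) = 1).trans (xG_zero _ _).symm))
  have hus1 : us ≠ 1 := by
    intro e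
    have e1 : xG h.cert d4p4 (1 : K) ∈ rootsU chevD4 K {r | r ∈ [d4p1, d4p3]} := by
      have e2 : xG h.cert d4p1 (1 : K) * xG h.cert d4p3 1 * xG h.cert d4p4 1 = 1 := by
        simpa [us, wordG, mul_assoc] using e
      rw [eq_inv_of_mul_eq_one_right e2]
      exact inv_mem (mul_mem (xG_mem_rootsU h.cert (by simp) _) (xG_mem_rootsU h.cert (by simp) _))
    exact one_ne_zero (α := K) (eq_zero_of_xG_mem h.toStd (k := d4p4) (by decide +kernel)
      (S := {r | r ∈ [d4p1, d4p3]}) (fun r hr => by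
        simp only [List.mem_cons, List.not_mem_nil, or_false, Set.mem_ofPred_eq] at hr
        rcases hr with rfl | rfl <;> decide +kernel) e1)
  -- the generators
  refine exists_gens (a := torusHom chevD4 K c * xr) (b := xs * N) (mul_mem hcG hxrG) (mul_mem hxsG hNG) ?_
  set M := Subgroup.closure {torusHom chevD4 K c * xr, xs * N}
  have hbM : xs * N ∈ M := Subgroup.subset_closure (Or.inr rfl)
  obtain ⟨hcM, hxrM⟩ := torus_mem_of_mul_mem h (M := M) (c := c) (S := {r | r ∈ orbRoots [((23, [23]) : Orb)]})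
    (fun r hr => by simp only [orbRoots, List.flatMap_cons, List.flatMap_nil, List.append_nil, List.mem_cons,
      List.not_mem_nil, or_false, Set.mem_ofPred_eq] at hr; subst hr; decide +kernel)
    (fun r hr => by simp only [orbRoots, List.flatMap_cons, List.flatMap_nil, List.append_nil, List.mem_cons,
      List.not_mem_nil, or_false, Set.mem_ofPred_eq] at hr; subst hr; exact c23)
    hxrU (Subgroup.subset_closure (Or.inl rfl))
  have hcycs : ((21, [17, 20, 21]) : Orb).2.length = 3 := rfl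
  obtain ⟨y, hyM, hyG, hyU, hy⟩ := exists_new h hT hos hs3 hxsG hxsU (hne us hus1 _) hcG hcM hNG hNN hbM hA
    (s' := ⟨15, by decide⟩) hS15 (by rw [c21]; exact zpow_ne_one hz hE h3)
    (by show chi chevD4 15 c ≠ 1; rw [c15]; exact zpow_ne_one hz hE.neg_left h3)
  have hQs : G ⊓ rootsU chevD4 K {r | r ∈ orbRoots [((21, [17, 20, 21]) : Orb)]} ≤ M :=
    seed_le h hT hos hs3 (inf_empty_le h.cert _ _) hyM hyG hyU hy fun a b _ _ ha hb => by
      obtain ⟨j, hj⟩ := exists_zpow_eq hz hE (Units.mk0 (b / a) (div_ne_zero hb ha))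
      exact scale_of_zpow hcM hcG ha (j := j) (by rw [c21, hj]; rfl)
  have hNM : N ∈ M := by
    rw [show N = xs⁻¹ * (xs * N) by group]
    exact mul_mem (inv_mem (hQs (Subgroup.mem_inf.2 ⟨hxsG, hxsU⟩))) hbM
  obtain ⟨c', hc', hchi'⟩ : ∃ c', torusHom chevD4 K c' = N⁻¹ * torusHom chevD4 K c * N ∧
      chi chevD4 23 c' = chi chevD4 22 c := by
    have hd := monomial_conj_diagonal h (inv_mem hNN) (torus_mem_diagonal h c)
    rw [inv_inv, diagonalSubgroup_eq_range h] at hd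
    obtain ⟨c', hc'⟩ := hd
    obtain ⟨c'', hc'', hcc⟩ := exists_conj_torus h hNN hA c'
    have e : torusHom chevD4 K c'' = torusHom chevD4 K c := by rw [hc'', hc']; group
    refine ⟨c', hc', ?_⟩
    have e1 := hcc ⟨23, by decide⟩
    rw [hS23] at e1
    rw [← e1]
    exact CfsgLib.Twisted.chi_eq_of_torusHom_eq e ⟨22, by decide⟩
  have hQr : G ⊓ rootsU chevD4 K {r | r ∈ orbRoots [((23, [23]) : Orb)]} ≤ M :=
    seed_le h hT hor (by simpa using hr1) (inf_empty_le h.cert _ _) hxrM hxrG hxrU (hne ur hur1 _)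
      fun a b ha' hb' ha hb => by
        rw [CfsgLib.Twisted.cycSet_graph hm CfsgLib.Twisted.graphEtaD4A_sign _ heta] at ha' hb'
        simp only [Set.mem_ofPred_eq, List.length_cons, List.length_nil, zero_add, pow_one] at ha' hb'
        set u := Units.mk0 (b / a) (div_ne_zero hb ha)
        have hu : u ^ q = u := Units.ext (by
          rw [Units.val_pow_eq_pow_val, Units.val_mk0, div_pow, ha', hb'])
        obtain ⟨k, hk⟩ := Subgroup.mem_zpowers_iff.1 (hz u)
        have hord : (orderOf z : ℤ) = (1 + (q : ℤ) + q ^ 2) * ((q : ℤ) - 1) := by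
          rw [orderOf_eq_card_of_forall_mem_zpowers hz, Nat.card_eq_fintype_card, Fintype.card_units, hK,
            Nat.cast_sub (Nat.one_le_pow _ _ (by omega))]
          push_cast
          ring
        have hdvd : (orderOf z : ℤ) ∣ k * ((q : ℤ) - 1) := by
          refine orderOf_dvd_iff_zpow_eq_one.2 ?_
          rw [zpow_mul, hk, zpow_sub, zpow_natCast, zpow_one, hu, mul_inv_cancel]
        rw [hord] at hdvd
        obtain ⟨j, hj⟩ := (mul_dvd_mul_iff_right (show ((q : ℤ) - 1) ≠ 0 by omega)).1 hdvd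
        refine scale_of_zpow (c := c') (by rw [hc']; exact mul_mem (mul_mem (inv_mem hNM) hcM) hNM)
          (by rw [hc']; exact mul_mem (mul_mem (inv_mem hNG) hcG) hNG) ha (j := j) ?_
        rw [hchi', c22, ← zpow_mul, ← hj, hk]
        rfl
  -- every generator
  have hcov : ∀ S T : List ℕ, ∀ k : ℕ, ((S.all fun s => decide (s < chevD4.nroots)) &&
      T.all fun t => decide (t < chevD4.nroots) && S.any fun s => decide (∀ s' : Fin chevD4.nroots,
        (s' : ℕ) = s → (((wPerm fullD4.cert coxD4W ^ k) s' : Fin chevD4.nroots) : ℕ) = t)) = true →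
      G ⊓ rootsU chevD4 K {r | r ∈ S} ≤ M → G ⊓ rootsU chevD4 K {r | r ∈ T} ≤ M :=
    fun S T k hST hS => inf_rootsU_le_of_pow hNG hNM hA k hST hS
  have hQr' : G ⊓ rootsU chevD4 K {r | r ∈ [23]} ≤ M := by simpa [orbRoots] using hQr
  have hQs' : G ⊓ rootsU chevD4 K {r | r ∈ [17, 20, 21]} ≤ M := by simpa [orbRoots] using hQs
  have t14 := hcov [23] [14] 5 (by decide +kernel) hQr'
  have t9 := hcov [23] [9] 2 (by decide +kernel) hQr'
  have t18 := hcov [17, 20, 21] [18, 13, 12] 1 (by decide +kernel) hQs'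
  have t5 := hcov [17, 20, 21] [5, 10, 11] 4 (by decide +kernel) hQs'
  rw [hGdef, twistedD4, ChevalleyDatum.genSubgroup, Subgroup.closure_le]
  rintro g ⟨w, hw, hg⟩
  rw [CfsgLib.Twisted.wordG_eq_of_eq h.cert hg]
  rcases hw with ⟨t, ht, r, hr, rfl⟩ | ⟨t, rs, hr, rfl⟩
  · simp only [List.mem_cons, List.not_mem_nil, or_false] at hr
    rcases hr with rfl | rfl
    · exact wordG_mem_of_le h.cert t14 (Or.inl ⟨t, ht, _, by simp, rfl⟩) (by simp [d4p2])
    · exact wordG_mem_of_le h.cert t9 (Or.inl ⟨t, ht, _, by simp, rfl⟩) (by simp [d4m2])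
  · simp only [List.mem_cons, List.not_mem_nil, or_false] at hr
    rcases hr with rfl | rfl
    · exact wordG_mem_of_le h.cert t18 (Or.inr ⟨t, _, by simp, rfl⟩) (by simp [d4p1, d4p3, d4p4])
    · exact wordG_mem_of_le h.cert t5 (Or.inr ⟨t, _, by simp, rfl⟩) (by simp [d4m1, d4m3, d4m4])

end CfsgLib.TwistedGen
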