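import Cfsg.Agent.Lib.TwistedGen.Powers
import Cfsg.Agent.Lib.TwistedOrder.Instances
import Cfsg.Agent.Lib.Twisted.TorusCounts

/-!
²E₆(q) is generated by two elements.
-/

set_option autoImplicit false
set_option maxRecDepth 100000

namespace CfsgLib.TwistedGen

open Cfsg.Lie
open CfsgLib.Chevalley hiding xG_mem_group
open CfsgLib.TwistedOrder
open CfsgLib.Twisted (Orb orbRoots checkOrd cycSet wordG wordG_mem_gen graphTwist graphSigmaE6 graphEtaE6
  fullE6 orthPair_of_check checkOrthPair prod_hG_mem rootCertE6)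

theorem e6Gen_ok : (checkOrd chevE6 graphSigmaE6 [(46, [46])] &&
    checkOrd chevE6 graphSigmaE6 [(61, [49, 61])] &&
    decide (CfsgLib.Twisted.etaCycle graphSigmaE6 graphEtaE6 (46, [46]) = 1) &&
    decide (graphSigmaE6 46 = 46) && decide (graphSigmaE6^[2] 61 = 61) &&
    ([46, 39, 61, 15].map fun r => [chevE6.cartan 2 r, chevE6.cartan 4 r]) ==
      [[0, 0], [-1, -1], [0, -1], [1, 0]] &&
    checkOrthPair chevE6 e6p3 e6p5 &&
    [chevE6.neg e6p3, chevE6.neg e6p5] == [e6m3, e6m5] &&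
    [chevE6.simple 2, chevE6.simple 4] == [e6p3, e6p5]) = true := by
  decide +kernel

/-- The Coxeter element used. -/
def coxE6W : List (Fin chevE6.rank) :=
  blockWord chevE6 [1] ++ blockWord chevE6 [3] ++ (blockWord chevE6 [2, 4] ++ blockWord chevE6 [0, 5])

theorem e6Cox_ok : (
    decide (((wPerm fullE6.cert coxE6W) ⟨46, by decide⟩ : Fin chevE6.nroots).val = 39) &&
    decide (((wPerm fullE6.cert coxE6W) ⟨15, by decide⟩ : Fin chevE6.nroots).val = 61)) = true := by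
  decide +kernel

theorem e6Cox_seed : ∀ t : Fin chevE6.nroots, (t : ℕ) ∈ [56, 36] →
    (((wPerm fullE6.cert coxE6W ^ 7) t : Fin chevE6.nroots) : ℕ) ∈ [49, 61] := by
  decide +kernel

/-- the certificate of a transport -/
def e6Move (k : ℕ) (S T : List ℕ) : Bool :=
  (S.all fun s => decide (s < chevE6.nroots)) &&
    T.all fun t => decide (t < chevE6.nroots) && S.any fun s => decide (∀ s' : Fin chevE6.nroots,
      (s' : ℕ) = s → (((wPerm fullE6.cert coxE6W ^ k) s' : Fin chevE6.nroots) : ℕ) = t)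

theorem e6Moves_ok : (e6Move 1 [46] [39] && e6Move 6 [46] [25] && e6Move 7 [46] [32] &&
    e6Move 5 [49, 61] [56, 36] && e6Move 4 [49, 61] [42, 37] && e6Move 11 [49, 61] [15, 35] &&
    e6Move 10 [49, 61] [29, 34]) = true := by
  decide +kernel

variable {K : Type*} [Field K] [Fintype K] {q : ℕ}

set_option maxHeartbeats 1000000 in
theorem exists_gens_e6 (hq : IsPrimePow q) (hK : Fintype.card K = q ^ 2) :
    ∃ a b : ↥(twistedE6 K q), Subgroup.closure ({a, b} : Set ↥(twistedE6 K q)) = ⊤ := by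
  classical
  have hq2 := hq.two_le
  have hcd := e6Gen_ok
  simp only [Bool.and_eq_true, beq_iff_eq, List.map_cons, List.map_nil, List.cons.injEq, and_true,
    decide_eq_true_eq] at hcd
  obtain ⟨⟨⟨⟨⟨⟨⟨⟨hor, hos⟩, heta⟩, hr1⟩, hs2⟩, hcart⟩, o35⟩, n3, n5⟩, s2, s4⟩ := hcd
  obtain ⟨⟨e462, e464⟩, ⟨e392, e394⟩, ⟨e612, e614⟩, e152, e154⟩ := hcart
  have hcox := e6Cox_ok
  simp only [Bool.and_eq_true, decide_eq_true_eq] at hcox
  obtain ⟨hS46, hS15⟩ := hcox
  let h := fullE6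
  have T := dataE6 hq hK
  have hT := T.twist
  set G := twistedE6 K q with hGdef
  have hm : (-1 : K) ^ q = -1 := CfsgLib.Twisted.neg_one_pow_primePow hq two_ne_zero hK
  have h3 : 2 < Fintype.card K := by
    rw [hK]
    calc 2 < 2 ^ 2 := by norm_num
      _ ≤ q ^ 2 := Nat.pow_le_pow_left hq2 2
  obtain ⟨z, hz⟩ := IsCyclic.exists_generator (α := Kˣ)
  set c : Fin chevE6.rank → Kˣ := (![1, 1, z, 1, z ^ q, 1] : Fin 6 → Kˣ) with hc
  have w2 : ∀ t : K, ∀ rs ∈ [(e6p1, e6p6), (e6m1, e6m6), (e6p3, e6p5), (e6m3, e6m5)],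
      wordG h.cert [(rs.1, t), (rs.2, t ^ q)] ∈ G := fun t rs hrs =>
    wordG_mem_gen _ (Or.inr ⟨t, rs, hrs, rfl⟩)
  have hcG : torusHom chevE6 K c ∈ G := by
    have hsplit : torusHom chevE6 K c =
        ([(e6p3, (z : K)), (e6p5, (z : K) ^ q)].map fun p => hG h.cert p.1 p.2).prod := by
      simp only [List.map_cons, List.map_nil, List.prod_cons, List.prod_nil, mul_one]
      rw [← s2, ← s4, ← Units.val_pow_eq_pow_val,
        show hG h.cert (chevE6.simple 2) (z : K) = torusHom chevE6 K (Pi.mulSingle (2 : Fin 6) z) from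
          (torusHom_mulSingle h.cert (2 : Fin 6) z).symm,
        show hG h.cert (chevE6.simple 4) ((z ^ q : Kˣ) : K) = torusHom chevE6 K (Pi.mulSingle (4 : Fin 6) (z ^ q)) from
          (torusHom_mulSingle h.cert (4 : Fin 6) (z ^ q)).symm, ← map_mul]
      have key : (![1, 1, z, 1, z ^ q, 1] : Fin 6 → Kˣ) = Pi.mulSingle 2 z * Pi.mulSingle 4 (z ^ q) := by
        funext k
        fin_cases k <;> simp [Pi.mulSingle_apply]
      exact congrArg (torusHom chevE6 K) key
    rw [hsplit]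
    refine prod_hG_mem h.cert ?_ (w2 _ (e6p3, e6p5) (by simp)) ?_ ?_ ?_
    · simp only [List.map_cons, List.map_nil, List.pairwise_cons, List.mem_cons, List.not_mem_nil, or_false,
        forall_eq, IsEmpty.forall_iff, implies_true, List.Pairwise.nil, and_true]
      exact orthPair_of_check h.cert rootCertE6 o35
    · simpa [CfsgLib.Twisted.negPart, n3, n5, inv_pow, neg_pow, hm] using w2 (-(z : K)⁻¹) (e6m3, e6m5) (by simp)
    · simpa [hm] using w2 (-1) (e6p3, e6p5) (by simp)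
    · simpa [CfsgLib.Twisted.negPart, n3, n5] using w2 1 (e6m3, e6m5) (by simp)
  have hchi : ∀ r : ℕ, chi chevE6 r c = z ^ (chevE6.cartan 2 r + (q : ℤ) * chevE6.cartan 4 r) := by
    intro r
    show ∏ k : Fin 6, c k ^ chevE6.cartan k r = _
    rw [Fin.prod_univ_six]
    show (1 : Kˣ) ^ chevE6.cartan 0 r * (1 : Kˣ) ^ chevE6.cartan 1 r * z ^ chevE6.cartan 2 r *
      (1 : Kˣ) ^ chevE6.cartan 3 r * (z ^ q) ^ chevE6.cartan 4 r * (1 : Kˣ) ^ chevE6.cartan 5 r = _
    simp only [one_zpow, one_mul, mul_one]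
    rw [zpow_add, zpow_mul, zpow_natCast]
  have c46 : chi chevE6 46 c = 1 := by rw [hchi, e462, e464]; simp
  have c39 : chi chevE6 39 c = z ^ (-(1 + (q : ℤ))) := by rw [hchi, e392, e394]; ring_nf
  have c61 : chi chevE6 61 c = z ^ (-(q : ℤ)) := by rw [hchi, e612, e614]; ring_nf
  have c15 : chi chevE6 15 c = z ^ (1 : ℤ) := by rw [hchi, e152, e154]; ring_nf
  have hE : IsCoprime (-(q : ℤ)) ((Fintype.card K : ℤ) - 1) := ⟨-(q : ℤ), -1, by rw [hK]; push_cast; ring⟩
  have hreal := block_mem_permSet h reflTabE6_ok w1BlocksE6_ok (CfsgLib.Twisted.fixedDataE6 hq hK) (by decide +kernel)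
  obtain ⟨m₁, hm₁, η₁, hA₁⟩ := mem_permSet.1 (hreal [1] (by simp [w1BlocksE6]))
  obtain ⟨m₂, hm₂, η₂, hA₂⟩ := mem_permSet.1 (hreal [3] (by simp [w1BlocksE6]))
  obtain ⟨m₃, hm₃, η₃, hA₃⟩ := mem_permSet.1 (hreal [2, 4] (by simp [w1BlocksE6]))
  obtain ⟨m₄, hm₄, η₄, hA₄⟩ := mem_permSet.1 (hreal [0, 5] (by simp [w1BlocksE6]))
  set N := m₁ * m₂ * (m₃ * m₄)
  obtain ⟨η, hA⟩ : ∃ η, Acts h.cert N (wPerm h.cert coxE6W) η := ⟨_, by
    rw [coxE6W, wPerm_append, wPerm_append, wPerm_append]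
    exact (hA₁.mul hA₂).mul (hA₃.mul hA₄)⟩
  have hNG : N ∈ G := mul_mem (mul_mem hm₁.1 hm₂.1) (mul_mem hm₃.1 hm₄.1)
  have hNN : N ∈ chevE6.monomialSubgroup K := mul_mem (mul_mem hm₁.2 hm₂.2) (mul_mem hm₃.2 hm₄.2)
  obtain ⟨θ₇, hθ₇⟩ := acts_pow h.cert hA 7
  set xr := wordG h.cert [(e6p2, (1 : K))]
  set us := wordG h.cert [(e6p1, (1 : K)), (e6p6, 1 ^ q)]
  have hxrG : xr ∈ G := wordG_mem_gen _ (Or.inl ⟨1, one_pow q, e6p2, by simp, rfl⟩)
  have hus : us ∈ G := w2 1 _ (List.mem_cons_self ..)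
  set xs := N ^ 7 * us * (N ^ 7)⁻¹
  have hxsG : xs ∈ G := mul_mem (mul_mem (pow_mem hNG 7) hus) (inv_mem (pow_mem hNG 7))
  have hxrU : xr ∈ rootsU chevE6 K {r | r ∈ orbRoots [((46, [46]) : Orb)]} :=
    wordG_mem_rootsU h.cert (by simp [e6p2, orbRoots])
  have hxsU : xs ∈ rootsU chevE6 K {r | r ∈ orbRoots [((61, [49, 61]) : Orb)]} :=
    hθ₇.conj_rootsU (S := {r | r ∈ [56, 36]}) (fun s hs => by
      show ((_ : Fin chevE6.nroots) : ℕ) ∈ orbRoots _
      simpa [orbRoots] using e6Cox_seed s hs) _ (wordG_mem_rootsU h.cert (by simp [e6p1, e6p6]))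
  have hbot : rootsU chevE6 K {r | r ∈ orbRoots ([] : List Orb)} = ⊥ := by
    rw [eq_bot_iff, rootsU_le_iff h.cert]
    intro s hs
    simp [orbRoots] at hs
  have hxr1 : xr ∉ rootsU chevE6 K {r | r ∈ orbRoots ([] : List Orb)} := by
    have e : xr = xG h.cert e6p2 (1 : K) := by simp [xr, wordG]
    rw [e]
    exact xG_notMem_empty h.cert (by decide +kernel) one_ne_zero
  have hxs1 : xs ∉ rootsU chevE6 K {r | r ∈ orbRoots ([] : List Orb)} := by
    rw [hbot, Subgroup.mem_bot, conj_eq_one_iff]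
    intro e
    have e1 : xG h.cert e6p6 (1 : K) ∈ rootsU chevE6 K {r | r ∈ [e6p1]} := by
      have e2 : xG h.cert e6p1 (1 : K) * xG h.cert e6p6 1 = 1 := by simpa [us, wordG] using e
      rw [eq_inv_of_mul_eq_one_right e2]
      exact inv_mem (xG_mem_rootsU h.cert (by simp) _)
    exact one_ne_zero (α := K) (eq_zero_of_xG_mem h.toStd (k := e6p6) (by decide +kernel)
      (S := {r | r ∈ [e6p1]}) (fun r hr => by
        simp only [List.mem_cons, List.not_mem_nil, or_false, Set.mem_ofPred_eq] at hr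
        subst hr; decide +kernel) e1)
  refine exists_gens (a := torusHom chevE6 K c * xr) (b := xs * N) (mul_mem hcG hxrG) (mul_mem hxsG hNG) ?_
  set M := Subgroup.closure {torusHom chevE6 K c * xr, xs * N}
  have hbM : xs * N ∈ M := Subgroup.subset_closure (Or.inr rfl)
  obtain ⟨hcM, hxrM⟩ := torus_mem_of_mul_mem h (M := M) (c := c) (S := {r | r ∈ orbRoots [((46, [46]) : Orb)]})
    (fun r hr => by simp only [orbRoots, List.flatMap_cons, List.flatMap_nil, List.append_nil, List.mem_cons,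
      List.not_mem_nil, or_false, Set.mem_ofPred_eq] at hr; subst hr; decide +kernel)
    (fun r hr => by simp only [orbRoots, List.flatMap_cons, List.flatMap_nil, List.append_nil, List.mem_cons,
      List.not_mem_nil, or_false, Set.mem_ofPred_eq] at hr; subst hr; exact c46)
    hxrU (Subgroup.subset_closure (Or.inl rfl))
  obtain ⟨y, hyM, hyG, hyU, hy⟩ := exists_new h hT hos hs2 hxsG hxsU hxs1 hcG hcM hNG hNN hbM hA
    (s' := ⟨15, by decide⟩) hS15 (by rw [c61]; exact zpow_ne_one hz hE h3)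
    (by show chi chevE6 15 c ≠ 1; rw [c15]; exact zpow_ne_one hz isCoprime_one_left h3)
  have hQs : G ⊓ rootsU chevE6 K {r | r ∈ orbRoots [((61, [49, 61]) : Orb)]} ≤ M :=
    seed_le h hT hos hs2 (inf_empty_le h.cert _ _) hyM hyG hyU hy fun a b _ _ ha hb => by
      obtain ⟨j, hj⟩ := exists_zpow_eq hz hE (Units.mk0 (b / a) (div_ne_zero hb ha))
      exact scale_of_zpow hcM hcG ha (j := j) (by rw [c61, hj]; rfl)
  have hNM : N ∈ M := by
    rw [show N = xs⁻¹ * (xs * N) by group]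
    exact mul_mem (inv_mem (hQs (Subgroup.mem_inf.2 ⟨hxsG, hxsU⟩))) hbM
  obtain ⟨c', hc', hchi'⟩ : ∃ c', torusHom chevE6 K c' = N⁻¹ * torusHom chevE6 K c * N ∧
      chi chevE6 46 c' = chi chevE6 39 c := by
    have hd := monomial_conj_diagonal h (inv_mem hNN) (torus_mem_diagonal h c)
    rw [inv_inv, diagonalSubgroup_eq_range h] at hd
    obtain ⟨c', hc'⟩ := hd
    obtain ⟨c'', hc'', hcc⟩ := exists_conj_torus h hNN hA c'
    have e : torusHom chevE6 K c'' = torusHom chevE6 K c := by rw [hc'', hc']; group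
    refine ⟨c', hc', ?_⟩
    have e1 := hcc ⟨46, by decide⟩
    rw [hS46] at e1
    rw [← e1]
    exact CfsgLib.Twisted.chi_eq_of_torusHom_eq e ⟨39, by decide⟩
  have hQr : G ⊓ rootsU chevE6 K {r | r ∈ orbRoots [((46, [46]) : Orb)]} ≤ M :=
    seed_le h hT hor (by simpa using hr1) (inf_empty_le h.cert _ _) hxrM hxrG hxrU hxr1
      fun a b ha' hb' ha hb => by
        rw [CfsgLib.Twisted.cycSet_graph hm CfsgLib.Twisted.graphEtaE6_sign _ heta] at ha' hb'
        simp only [Set.mem_ofPred_eq, List.length_cons, List.length_nil, zero_add, pow_one] at ha' hb'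
        set u := Units.mk0 (b / a) (div_ne_zero hb ha)
        have hu : u ^ q = u := Units.ext (by
          rw [Units.val_pow_eq_pow_val, Units.val_mk0, div_pow, ha', hb'])
        obtain ⟨k, hk⟩ := Subgroup.mem_zpowers_iff.1 (hz u)
        have hord : (orderOf z : ℤ) = (1 + (q : ℤ)) * ((q : ℤ) - 1) := by
          rw [orderOf_eq_card_of_forall_mem_zpowers hz, Nat.card_eq_fintype_card, Fintype.card_units, hK,
            Nat.cast_sub (Nat.one_le_pow _ _ (by omega))]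
          push_cast
          ring
        have hdvd : (orderOf z : ℤ) ∣ k * ((q : ℤ) - 1) := by
          refine orderOf_dvd_iff_zpow_eq_one.2 ?_
          rw [zpow_mul, hk, zpow_sub, zpow_natCast, zpow_one, hu, mul_inv_cancel]
        rw [hord] at hdvd
        obtain ⟨j, hj⟩ := (mul_dvd_mul_iff_right (show ((q : ℤ) - 1) ≠ 0 by omega)).1 hdvd
        refine scale_of_zpow (c := c') (by rw [hc']; exact mul_mem (mul_mem (inv_mem hNM) hcM) hNM)
          (by rw [hc']; exact mul_mem (mul_mem (inv_mem hNG) hcG) hNG) ha (j := -j) ?_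
        rw [hchi', c39, ← zpow_mul, neg_mul_neg, ← hj, hk]
        rfl
  have hQr' : G ⊓ rootsU chevE6 K {r | r ∈ [46]} ≤ M := by simpa [orbRoots] using hQr
  have hQs' : G ⊓ rootsU chevE6 K {r | r ∈ [49, 61]} ≤ M := by simpa [orbRoots] using hQs
  have hmv := e6Moves_ok
  simp only [Bool.and_eq_true] at hmv
  obtain ⟨⟨⟨⟨⟨⟨v39, v25⟩, v32⟩, v36⟩, v37⟩, v15⟩, v29⟩ := hmv
  have t39 := inf_rootsU_le_of_pow hNG hNM hA 1 (S := [46]) (T := [39]) v39 hQr'
  have t25 := inf_rootsU_le_of_pow hNG hNM hA 6 (S := [46]) (T := [25]) v25 hQr'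
  have t32 := inf_rootsU_le_of_pow hNG hNM hA 7 (S := [46]) (T := [32]) v32 hQr'
  have t36 := inf_rootsU_le_of_pow hNG hNM hA 5 (S := [49, 61]) (T := [56, 36]) v36 hQs'
  have t37 := inf_rootsU_le_of_pow hNG hNM hA 4 (S := [49, 61]) (T := [42, 37]) v37 hQs'
  have t15 := inf_rootsU_le_of_pow hNG hNM hA 11 (S := [49, 61]) (T := [15, 35]) v15 hQs'
  have t29 := inf_rootsU_le_of_pow hNG hNM hA 10 (S := [49, 61]) (T := [29, 34]) v29 hQs'
  rw [hGdef, twistedE6, ChevalleyDatum.genSubgroup, Subgroup.closure_le]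
  rintro g ⟨w, hw, hg⟩
  rw [CfsgLib.Twisted.wordG_eq_of_eq h.cert hg]
  rcases hw with ⟨t, ht, r, hr, rfl⟩ | ⟨t, rs, hr, rfl⟩
  · simp only [List.mem_cons, List.not_mem_nil, or_false] at hr
    rcases hr with rfl | rfl | rfl | rfl
    · exact wordG_mem_of_le h.cert hQr' (Or.inl ⟨t, ht, _, by simp, rfl⟩) (by simp [e6p2])
    · exact wordG_mem_of_le h.cert t25 (Or.inl ⟨t, ht, _, by simp, rfl⟩) (by simp [e6m2])
    · exact wordG_mem_of_le h.cert t39 (Or.inl ⟨t, ht, _, by simp, rfl⟩) (by simp [e6p4])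
    · exact wordG_mem_of_le h.cert t32 (Or.inl ⟨t, ht, _, by simp, rfl⟩) (by simp [e6m4])
  · simp only [List.mem_cons, List.not_mem_nil, or_false] at hr
    rcases hr with rfl | rfl | rfl | rfl
    · exact wordG_mem_of_le h.cert t36 (Or.inr ⟨t, _, by simp, rfl⟩) (by simp [e6p1, e6p6])
    · exact wordG_mem_of_le h.cert t15 (Or.inr ⟨t, _, by simp, rfl⟩) (by simp [e6m1, e6m6])
    · exact wordG_mem_of_le h.cert t37 (Or.inr ⟨t, _, by simp, rfl⟩) (by simp [e6p3, e6p5])
    · exact wordG_mem_of_le h.cert t29 (Or.inr ⟨t, _, by simp, rfl⟩) (by simp [e6m3, e6m5])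

end CfsgLib.TwistedGen
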